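import Cfsg.Agent.Sing.J

/-! The Singer cycle in dimensions seven and eleven. -/

set_option autoImplicit false
set_option linter.style.haveILetI false

namespace CF.X7S

open Module CF.Geom CF.Sing

/-- the parameters `q ^ n - 1 = (q - 1) d m` -/
structure Par (q n d m : ℕ) : Prop where
  q2 : 2 ≤ q
  pr : n.Prime
  n13 : 7 ≤ n
  eq : q ^ n = (q - 1) * d * m + 1
  c1 : m.Coprime (q - 1)
  c2 : m.Coprime n
  dv : d ∣ q - 1
  dn : d = 1 ∨ d = n

theorem exists_par {q n : ℕ} (hq : 2 ≤ q) (hn : n.Prime) (h13 : 7 ≤ n) : ∃ d m, Par q n d m := by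
  obtain ⟨r, rfl⟩ : ∃ r, q = r + 1 := ⟨q - 1, by omega⟩
  have h1 : ∀ i, ∃ w, (r + 1) ^ i = 1 + r * i + r ^ 2 * w := fun i => by
    induction i with
    | zero => exact ⟨0, by simp⟩
    | succ i ih => obtain ⟨w, hw⟩ := ih; exact ⟨i + w * (r + 1), by rw [pow_succ, hw]; ring⟩
  have h2 : ∀ k, ∃ w, ∑ i ∈ Finset.range k, (r + 1) ^ i =
      k + r * ∑ i ∈ Finset.range k, i + r ^ 2 * w := fun k => by
    induction k with
    | zero => exact ⟨0, by simp⟩
    | succ k ih =>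
      obtain ⟨w, hw⟩ := ih
      obtain ⟨w', hw'⟩ := h1 k
      exact ⟨w + w', by rw [Finset.sum_range_succ, Finset.sum_range_succ, hw, hw']; ring⟩
  obtain ⟨w, hw⟩ := h2 n
  have h3 := geom_sum_mul_add r n
  set v := ∑ i ∈ Finset.range n, (r + 1) ^ i
  have h4 : ∀ s, s ∣ v → s ∣ r → s ∣ n := fun s a b => by
    rw [hw, add_assoc] at a
    exact (Nat.dvd_add_left (Dvd.dvd.add (b.mul_right _) ((dvd_pow b two_ne_zero).mul_right _))).1 a
  by_cases h : n ∣ r
  · obtain ⟨k, rfl⟩ := h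
    obtain ⟨j, hj⟩ := hn.odd_of_ne_two (by omega)
    have h5 : ∑ i ∈ Finset.range n, i = n * j := by
      have := Finset.sum_range_id_mul_two n
      rw [show n - 1 = j * 2 by omega, ← mul_assoc] at this
      omega
    have h6 : v = n * (1 + n * (k * j + k ^ 2 * w)) := by rw [hw, h5]; ring
    have h7 : (1 + n * (k * j + k ^ 2 * w)).Coprime n := by simp
    refine ⟨n, _, hq, hn, h13, by rw [← h3, h6]; simp only [Nat.add_sub_cancel]; ring, ?_, h7,
      by simp, Or.inr rfl⟩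
    refine Nat.coprime_of_dvd fun s hs a b => ?_
    exact hs.one_lt.ne' (Nat.eq_one_of_dvd_coprimes h7 a (h4 s (h6 ▸ a.mul_left _) b))
  · refine ⟨1, v, hq, hn, h13, by rw [← h3]; simp only [Nat.add_sub_cancel]; ring, ?_, ?_,
      one_dvd _, Or.inl rfl⟩
    · exact Nat.coprime_of_dvd fun s hs a b =>
        h ((Nat.prime_dvd_prime_iff_eq hs hn).1 (h4 s a b) ▸ b)
    · refine (hn.coprime_iff_not_dvd.2 fun c => h ?_).symm
      haveI := Fact.mk hn
      have e := congrArg (Nat.cast : ℕ → ZMod n) h3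
      push_cast at e
      rw [ZMod.pow_card, (ZMod.natCast_eq_zero_iff v n).2 c, zero_mul, add_left_inj] at e
      exact (ZMod.natCast_eq_zero_iff r n).1 e.symm

namespace Par
variable {q n d m : ℕ} (h : Par q n d m)
include h

theorem d_pos : 0 < d := by have := h.n13; rcases h.dn with e | e <;> omega

theorem d_lt : d < q := by
  have := h.q2; have := Nat.le_of_dvd (by omega) h.dv; omega

theorem m_ge : q ^ (n - 2) ≤ m := by
  have h1 := h.eq
  have := h.q2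
  have := h.n13
  have h2 : (q - 1) * d < q ^ 2 := by
    have := h.d_lt
    calc (q - 1) * d ≤ (q - 1) * q := Nat.mul_le_mul_left _ this.le
      _ < q * q := Nat.mul_lt_mul_of_pos_right (by omega) (by omega)
      _ = q ^ 2 := (sq q).symm
  have m0 : 0 < m := Nat.pos_of_ne_zero fun c => by
    rw [c] at h1
    have := Nat.one_lt_pow (n := n) (a := q) (by omega) (by omega)
    omega
  refine Nat.le_of_mul_le_mul_left (c := q ^ 2) ?_ (by positivity)
  rw [← pow_add, show 2 + (n - 2) = n by omega, h1]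
  nlinarith

theorem two_le_m : 2 ≤ m :=
  le_trans (Nat.one_lt_pow (by have := h.n13; omega) h.q2) h.m_ge

theorem M_ge : q ^ (n - 1) + q ^ (n - 2) ≤ (q - 1) * m := by
  have h1 := h.eq
  have := h.q2
  have := h.n13
  obtain ⟨r, rfl⟩ : ∃ r, q = r + 1 := ⟨q - 1, by omega⟩
  obtain ⟨k, rfl⟩ : ∃ k, n = k + 2 := ⟨n - 2, by omega⟩
  have h2 := h.d_lt
  simp only [Nat.add_sub_cancel] at h1 ⊢
  rw [show k + 2 - 1 = k + 1 by omega]
  refine Nat.le_of_mul_le_mul_left (c := r) ?_ (by omega)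
  have h3 : r * d * m ≤ r * (r * m) := by
    rw [mul_assoc]; exact Nat.mul_le_mul_left _ (Nat.mul_le_mul_right _ (by omega))
  have : 1 ≤ (r + 1) ^ k := Nat.one_le_pow _ _ (by omega)
  rw [pow_succ, pow_succ] at h1
  rw [pow_succ]
  nlinarith

theorem q15 (hn : n = 7 ∨ n = 11) (h8 : ¬ (n = 7 ∧ q = 8)) :
    d = 1 ∨ d = 7 ∧ n = 7 ∧ 15 ≤ q ∨ d = 11 ∧ n = 11 ∧ 12 ≤ q := by
  have := h.q2
  obtain ⟨k, hk⟩ := h.dv
  rcases h.dn with e | e
  · exact .inl e
  have : k ≠ 0 := by rintro rfl; omega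
  rcases hn with rfl | rfl <;> subst e <;> omega

theorem big (hn : n = 7 ∨ n = 11) (h8 : ¬ (n = 7 ∧ q = 8)) {e f : ℕ} (he : e ≤ n)
    (hf : (m - 1) * f ≤ e * ((q - 1) * d * m)) : f ^ 2 + 1 < m := by
  have h1 := h.eq
  have q2 := h.q2
  have m2 := h.two_le_m
  have f2 : (n * ((q - 1) * d)) ^ 2 + 1 < m := by
    refine Nat.lt_of_mul_lt_mul_left (a := (q - 1) * d) ?_
    obtain ⟨r, rfl⟩ : ∃ r, q = r + 1 := ⟨q - 1, by omega⟩
    simp only [Nat.add_sub_cancel] at *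
    have a : r ^ 3 + r + 1 ≤ (r + 1) ^ 3 := by nlinarith [Nat.zero_le (r * r)]
    have b : ∀ {c k : ℕ}, c ≤ r + 1 → c ^ k * (r ^ 3 + r + 1) ≤ (r + 1) ^ (k + 3) := fun {c k} e => by
      rw [pow_add]; exact Nat.mul_le_mul (Nat.pow_le_pow_left e _) a
    rcases h.q15 hn h8 with rfl | ⟨rfl, rfl, c⟩ | ⟨rfl, rfl, c⟩
    · rcases hn with rfl | rfl
      · rcases (by omega : r = 1 ∨ 3 ≤ r + 1) with rfl | c
        · omega
        · have := (b (k := 4) c).trans_eq h1; nlinarith [Nat.zero_le (r ^ 3)]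
      · have := (b (k := 8) q2).trans_eq h1; nlinarith [Nat.zero_le (r ^ 3)]
    · have := (b (k := 4) c).trans_eq h1; nlinarith [Nat.zero_le (r ^ 3)]
    · have := (b (k := 8) c).trans_eq h1; nlinarith [Nat.zero_le (r ^ 3)]
  generalize (q - 1) * d = D at *
  refine lt_of_le_of_lt (Nat.succ_le_succ (Nat.pow_le_pow_left (Nat.le_of_lt_succ ?_) 2)) f2
  refine Nat.lt_of_mul_lt_mul_left (a := m - 1) (hf.trans_lt ?_)
  obtain ⟨k, rfl⟩ : ∃ k, m = k + 1 := ⟨m - 1, by omega⟩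
  have : e * (D * (k + 1)) ≤ n * (D * (k + 1)) := Nat.mul_le_mul_right _ he
  have : n * D ≤ (n * D) ^ 2 := Nat.le_self_pow two_ne_zero _
  simp only [Nat.add_sub_cancel, Nat.succ_eq_add_one]
  nlinarith

theorem frob {κ : ℕ} (hκ : m + 1 ≤ κ)
    (hf : (q - 1) * m * κ ≤ (q - 1) * d * m + (κ - 1) * (q ^ (n - 1) + q ^ 2)) : False := by
  have h1 := h.eq
  have q2 := h.q2
  have n13 := h.n13
  have m1 := h.m_ge
  have d1 := h.d_lt
  obtain ⟨k, rfl⟩ : ∃ k, κ = k + 1 := ⟨κ - 1, by omega⟩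
  obtain ⟨r, rfl⟩ : ∃ r, q = r + 1 := ⟨q - 1, by omega⟩
  obtain ⟨j, rfl⟩ : ∃ j, n = j + 6 := ⟨n - 6, by omega⟩
  simp only [Nat.add_sub_cancel] at h1 hf
  rw [show j + 6 - 1 = j + 5 by omega] at hf
  rw [show j + 6 - 2 = j + 4 by omega] at m1
  set q := r + 1 with hq
  have a1 : q ^ 3 + q ^ 3 ≤ q ^ (j + 5) := by
    rw [show j + 5 = 3 + (j + 2) by ring, pow_add]
    have := Nat.one_lt_pow (n := j + 2) (a := q) (by omega) (by omega)
    nlinarith [pow_pos (show 0 < q by omega) 3]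
  have a2 : q ^ (j + 6) = r * q ^ (j + 5) + q ^ (j + 5) := by rw [pow_succ, hq]; ring
  have a3 : q ^ 3 = r * q ^ 2 + q ^ 2 := by rw [pow_succ, hq]; ring
  have a4 : d * (q ^ (j + 5) + q ^ 2) + q ^ 3 ≤ r * d * m := by
    have : d * (q ^ (j + 5) + q ^ 2) ≤ r * (q ^ (j + 5) + q ^ 2) := Nat.mul_le_mul_right _ (by omega)
    have : 1 ≤ q ^ 2 := Nat.one_le_pow _ _ (by omega)
    nlinarith
  have a5 : k * q ^ 3 ≤ d * (r * d * m) := by
    have b1 := Nat.mul_le_mul_left k a4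
    have b2 := Nat.mul_le_mul_left d hf
    nlinarith [Nat.zero_le (d * (r * m))]
  have a6 : q ^ (j + 4) * q ^ 3 ≤ k * q ^ 3 := Nat.mul_le_mul_right _ (by omega)
  have a7 : d * (r * d * m) < q * q ^ (j + 6) :=
    Nat.mul_lt_mul_of_lt_of_le d1 (by omega) (by positivity)
  rw [← pow_add] at a6
  rw [← pow_succ'] at a7
  rw [show j + 4 + 3 = j + 6 + 1 by ring] at a6
  omega

theorem orb (hn : n = 7 ∨ n = 11) (h8 : ¬ (n = 7 ∧ q = 8)) {k : ℕ} (hk : k < q ^ (n - 1))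
    (hf : ((((q - 1) * m : ℕ) : ℝ) - k) ^ 2 * (m - 1) ≤ 2 * (((q - 1) * d : ℕ) : ℝ) ^ 3 * m * k) :
    False := by
  have q2 := h.q2
  have n13 := h.n13
  have dl := h.d_lt
  have d0 := h.d_pos
  have m2 : (2 : ℝ) ≤ m := by exact_mod_cast h.two_le_m
  have a1 : ((q ^ (n - 1) * (q - d) : ℕ) : ℝ) ≤ d * ((((q - 1) * m : ℕ) : ℝ) - k) := by
    rw [mul_sub, le_sub_iff_add_le]
    have e := h.eq
    obtain ⟨j, rfl⟩ : ∃ j, n = j + 1 := ⟨n - 1, by omega⟩
    obtain ⟨s, rfl⟩ : ∃ s, q = d + s := ⟨q - d, by omega⟩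
    simp only [Nat.add_sub_cancel, Nat.add_sub_cancel_left] at *
    rw [pow_succ] at e
    have : d * (k + 1) ≤ d * (d + s) ^ j := Nat.mul_le_mul_left _ hk
    exact_mod_cast (by nlinarith : (d + s) ^ j * s + d * k ≤ d * ((d + s - 1) * m))
  have a3 : (k : ℝ) ≤ (q ^ (n - 1) : ℕ) := by exact_mod_cast hk.le
  have a4 : ((q ^ (n - 1) * (q - d) : ℕ) : ℝ) ^ 2 * (m - 1) ≤ d ^ 2 * (2 * (((q - 1) * d : ℕ) : ℝ) ^ 3 *
      (2 * (m - 1)) * (q ^ (n - 1) : ℕ)) := by
    have : (0 : ℝ) ≤ m - 1 := by linarith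
    refine le_trans (mul_le_mul_of_nonneg_right (pow_le_pow_left₀ (by positivity) a1 2) this) ?_
    rw [mul_pow, mul_assoc]
    refine mul_le_mul_of_nonneg_left (hf.trans ?_) (by positivity)
    gcongr
    linarith
  have a5 : ((q ^ (n - 1) * (q - d) : ℕ) : ℝ) ^ 2 ≤ d ^ 2 * (4 * (((q - 1) * d : ℕ) : ℝ) ^ 3 * (q ^ (n - 1) : ℕ)) :=
    le_of_mul_le_mul_right (a := (m : ℝ) - 1) (by linarith) (by linarith)
  have a6 : (q ^ (n - 1) * (q - d)) ^ 2 ≤ d ^ 2 * (4 * ((q - 1) * d) ^ 3 * q ^ (n - 1)) := by exact_mod_cast a5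
  have a7 : q ^ (n - 1) * (q - d) ^ 2 ≤ 4 * d ^ 5 * (q - 1) ^ 3 :=
    Nat.le_of_mul_le_mul_right (c := q ^ (n - 1)) (by nlinarith) (by positivity)
  have a8 : (q - 1) ^ 3 < q ^ 3 := Nat.pow_lt_pow_left (by omega) (by norm_num)
  have b : ∀ {c k : ℕ}, c ≤ q → c ^ k * q ^ 3 ≤ q ^ (k + 3) := fun {c k} e => by
    rw [pow_add]; exact Nat.mul_le_mul_right _ (Nat.pow_le_pow_left e _)
  have b' : ∀ {c : ℕ}, c + d ≤ q → q ^ (n - 1) * c ^ 2 ≤ q ^ (n - 1) * (q - d) ^ 2 := fun e =>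
    Nat.mul_le_mul_left _ (Nat.pow_le_pow_left (by omega) _)
  rcases h.q15 hn h8 with rfl | ⟨rfl, rfl, c⟩ | ⟨rfl, rfl, c⟩
  · have := b' (c := 1) q2
    rcases hn with rfl | rfl
    · have := b (k := 3) q2; norm_num at *; omega
    · have := b (k := 7) q2; norm_num at *; omega
  · have := b' (c := 8) c; have := b (k := 3) c; norm_num at *; omega
  · have := b' (c := 1) c; have := b (k := 7) c; norm_num at *; omega

end Par

open Subgroup MulAction CF.Perm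
open scoped LinearAlgebra.Projectivization

variable {F K : Type*} [Field F] [Field K] [Algebra F K] [Finite K] {d m : ℕ}
  {G : Subgroup (K ≃ₗ[F] K)}

theorem Par.card_units (h : Par (Nat.card F) (finrank F K) d m) :
    Nat.card Kˣ = (Nat.card F - 1) * d * m := by
  haveI : Finite F := Finite.of_injective _ (algebraMap F K).injective
  rw [Nat.card_units, card_top (F := F), h.eq, Nat.add_sub_cancel]

theorem Par.card_ker (h : Par (Nat.card F) (finrank F K) d m) {e : ℕ}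
    (he : e ∣ (Nat.card F - 1) * d * m) : Nat.card (powMonoidHom e : Kˣ →* Kˣ).ker = e := by
  rw [IsCyclic.card_powMonoidHom_ker, h.card_units, Nat.gcd_eq_right he]

theorem Par.notMem (h : Par (Nat.card F) (finrank F K) d m) {t : Kˣ} (ht : t ^ m = 1) (h1 : t ≠ 1) :
    (t : K) ∉ Set.range (algebraMap F K) := fun c =>
  h1 (by rw [← pow_one t, ← h.c1, pow_gcd_eq_one]; exact ⟨ht, pow_of_mem_range c⟩)

theorem Par.frob_case (h : Par (Nat.card F) (finrank F K) d m)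
    (tr : ∀ x y : K, x ≠ 0 → y ≠ 0 → ∃ g ∈ G, ∃ c : F, g x = c • y)
    (hP : ∀ t : Kˣ, t ^ m = 1 → ml F t ∈ G) (hM : ∀ g ∈ G, Mono g → g ∈ (ml F).range)
    {g₀ : K ≃ₗ[F] K} (hg : g₀ ∈ G) (hm : ¬ Mono g₀) : False := by
  classical
  haveI : Finite F := Finite.of_injective _ (algebraMap F K).injective
  haveI := Fintype.ofFinite G
  have q2 := h.q2
  let C := (ml F).range.subgroupOf G
  let ι := (ml F).comp (Units.map (algebraMap F K : F →* K))
  let Z := ι.range.subgroupOf G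
  have hZ : ∀ g : G, (∃ c : F, ∀ v, g.1 v = c • v) → g ∈ Z := fun g ⟨c, hc⟩ =>
    ⟨Units.mk0 c fun e => by simpa [e] using hc 1,
      LinearEquiv.ext fun v => ((hc v).trans (Algebra.smul_def c v)).symm⟩
  have u1 : ∀ g ∉ Z, ∀ (k : G) (b : Kˣ), ml F b = (k⁻¹ * g * k).1 →
      (b : K) ∉ Set.range (algebraMap F K) := fun g n k b e ⟨c, hc⟩ => n <| hZ g ⟨c, fun v => by
    have := congrArg k.1 (LinearEquiv.congr_fun e (k.1⁻¹ v))
    rw [ml_apply, ← hc, ← Algebra.smul_def, map_smul] at this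
    simpa using this.symm⟩
  have u0 : ∀ g k : G, g • (k : G ⧸ C) = k → ∃ b, ml F b = (k⁻¹ * g * k).1 := fun g k e => by
    have : ((g * k)⁻¹ * k)⁻¹ ∈ C := inv_mem (QuotientGroup.eq.1 e)
    rw [mul_inv_rev, inv_inv, ← mul_assoc] at this
    exact this
  have u2 : ∀ g ∉ Z, ∀ x y : G ⧸ C, g • x = x → g • y = y → x = y := fun g n x y a b => by
    obtain ⟨x, rfl⟩ := QuotientGroup.mk_surjective x
    obtain ⟨y, rfl⟩ := QuotientGroup.mk_surjective y
    obtain ⟨s, hs⟩ := u0 g x a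
    obtain ⟨t, ht⟩ := u0 g y b
    refine QuotientGroup.eq.2 (hM _ (x⁻¹ * y).2 (mono_of_conj h.pr (u1 g n y t ht) (b := s) ?_))
    rw [hs, ht]; simp only [coe_mul, coe_inv, coe_subtype]; group
  haveI : IsPretransitive G (ℙ F K) := ⟨fun p p' => by
    obtain ⟨g, a, c⟩ := tr _ _ p.rep_nonzero p'.rep_nonzero
    exact ⟨⟨g, a⟩, (smul_eq_iff ..).2 c⟩⟩
  have cP : Nat.card (ℙ F K) = d * m := by
    have := Projectivization.card' F K
    rw [card_top (F := F), h.eq, Nat.add_right_cancel_iff, mul_assoc, mul_comm] at this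
    exact (Nat.eq_of_mul_eq_mul_right (by omega) this).symm
  set B := Nat.card F ^ (finrank F K - 1) + Nat.card F ^ 2
  have k1 : 1 ≤ C.index := Nat.pos_of_ne_zero C.index_ne_zero_of_finite
  have pt : ∀ g : G, (Nat.card F - 1) * Nat.card (fixedBy (ℙ F K) g) +
      B * Nat.card (fixedBy (G ⧸ C) g) ≤ B +
        if g ∈ Z then (Nat.card F - 1) * d * m + (C.index - 1) * B else 0 := fun g => by
    split_ifs with n
    · have a := Nat.mul_le_mul_left (Nat.card F - 1)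
        ((Finite.card_subtype_le (· ∈ fixedBy (ℙ F K) g)).trans cP.le)
      have b := Nat.mul_le_mul_left B (Finite.card_subtype_le (· ∈ fixedBy (G ⧸ C) g))
      obtain ⟨k, hk⟩ := Nat.exists_eq_add_of_le k1
      rw [← index_eq_card, hk] at b
      rw [hk, Nat.add_sub_cancel_left]
      nlinarith
    rcases isEmpty_or_nonempty (fixedBy (G ⧸ C) g) with e | ⟨⟨x, hx⟩⟩
    · simpa using fix_le g fun c => n (hZ g c)
    obtain ⟨x, rfl⟩ := QuotientGroup.mk_surjective x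
    obtain ⟨s, hs⟩ := u0 g x hx
    haveI : IsEmpty (fixedBy (ℙ F K) g) := ⟨fun p => by
      obtain ⟨c, hc⟩ := (smul_eq_iff g _ _).1 p.2
      refine u1 g n x s hs ⟨c, mul_right_cancel₀ (b := x.1⁻¹ p.1.rep) (by simpa using p.1.rep_nonzero) ?_⟩
      rw [← ml_apply (F := F) s, hs, ← Algebra.smul_def, ← map_smul, ← hc]; simp⟩
    have : Nat.card (fixedBy (G ⧸ C) g) ≤ 1 := Finite.card_le_one_iff_subsingleton.2
      ⟨fun a b => Subtype.ext (u2 g n _ _ a.2 b.2)⟩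
    simpa using Nat.mul_le_mul_left B this
  have s1 := Finset.sum_le_sum (s := Finset.univ) fun g _ => pt g
  rw [Finset.sum_add_distrib, Finset.sum_add_distrib, ← Finset.mul_sum, ← Finset.mul_sum,
    sum_card_fixedBy_of_trans, sum_card_fixedBy_of_trans, ← Finset.sum_filter, Finset.sum_const,
    Finset.sum_const, Finset.card_univ, ← Fintype.card_subtype, ← Nat.card_eq_fintype_card,
    ← Nat.card_eq_fintype_card, smul_eq_mul, smul_eq_mul] at s1
  let T := (powMonoidHom m : Kˣ →* Kˣ).ker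
  have cT : Nat.card T = m := h.card_ker (Dvd.intro_left _ rfl)
  let j : T →* G := ((ml F).comp T.subtype).codRestrict G fun t => hP t.1 t.2
  have d1 : m ∣ Nat.card C := cT ▸ card_dvd_of_injective (j.codRestrict C fun t => ⟨t, rfl⟩)
    fun a b e => Subtype.ext (ml_inj (congrArg (fun z => z.1.1) e))
  have d2 : Nat.card Z ∣ Nat.card C := card_dvd_of_le fun g ⟨c, hc⟩ => ⟨_, hc⟩
  have d3 : Nat.card Z ∣ Nat.card F - 1 := by
    rw [← Nat.card_units]
    exact (card_comap_dvd_of_injective _ _ G.subtype_injective).trans (card_range_dvd _)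
  have d4 := Nat.le_of_dvd Nat.card_pos ((h.c1.coprime_dvd_right d3).mul_dvd_of_dvd_of_dvd d1 d2)
  have g0 : (⟨g₀, hg⟩ : G) ∉ C := fun ⟨b, e⟩ => hm (by rw [show g₀ = _ from e.symm]; exact mono_ml b)
  have f1 : ∀ t : T, j t • ((1 : G) : G ⧸ C) = (1 : G) := fun t =>
    QuotientGroup.eq.2 (by have : j t ∈ C := ⟨t, rfl⟩; simpa using this)
  have f2 : (((⟨g₀, hg⟩ : G)) : G ⧸ C) ≠ (1 : G) := fun e => g0 (by simpa using QuotientGroup.eq.1 e)
  have k2 : m + 1 ≤ C.index := by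
    rw [← cT, ← Finite.card_option, index_eq_card]
    refine Nat.card_le_card_of_injective
      (fun o => o.elim ((1 : G) : G ⧸ C) fun t => j t • ((⟨g₀, hg⟩ : G) : G ⧸ C)) ?_
    rintro (_ | s) (_ | t) e
    · rfl
    · exact absurd (smul_left_cancel (j t) (e.symm.trans (f1 t).symm)) f2
    · exact absurd (smul_left_cancel (j s) (e.trans (f1 s).symm)) f2
    by_contra c
    refine f2 (u2 (j (t⁻¹ * s)) (fun ⟨a, ha⟩ => h.notMem (t⁻¹ * s).2 (fun z => c ?_)
      ⟨a, congrArg Units.val (ml_inj ha)⟩) _ _ ?_ (f1 _))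
    · rw [inv_mul_eq_one.1 (Subtype.ext z : t⁻¹ * s = 1)]
    · rw [map_mul, map_inv, mul_smul, inv_smul_eq_iff]; exact e
  refine h.frob k2 (Nat.le_of_mul_le_mul_left (c := Nat.card Z) ?_ Nat.card_pos)
  rw [← C.card_mul_index] at s1
  have := Nat.mul_le_mul_left ((Nat.card F - 1) * C.index) d4
  change _ ≤ _ + Nat.card Z * _ at s1
  change _ ≤ _ * (_ + _ * B)
  generalize (Nat.card F - 1) * d * m + (C.index - 1) * B = y at *
  linarith

theorem Par.trans_sc (h : Par (Nat.card F) (finrank F K) d m)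
    (hP : ∀ t : Kˣ, t ^ m = 1 → ml F t ∈ G) {g₀ : K ≃ₗ[F] K} (hg : g₀ ∈ G) (hm : ¬ Mono g₀)
    {x y : K} (hx : x ≠ 0) (hy : y ≠ 0) : ∃ g ∈ sc d G, g x = y := by
  refine transA (by have := h.n13; omega) _ (fun a ha => ?_) (le_sc d hg) hm hx hy
  obtain ⟨a, rfl⟩ := Ne.isUnit ha
  set b := a ^ (Nat.card F - 1)
  have h1 : b ^ ((d : ℤ) * m) = 1 := by
    rw [← Nat.cast_mul, zpow_natCast, ← pow_mul, ← mul_assoc, ← h.card_units, pow_card_eq_one']
  obtain ⟨u, v, e⟩ := Nat.isCoprime_iff_coprime.2 (h.c1.coprime_dvd_right h.dv)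
  have h2 : (b ^ (u * m)) ^ d = 1 := by
    rw [← zpow_natCast, ← zpow_mul, show u * m * d = d * m * u by ring, zpow_mul, h1, one_zpow]
  have q1 : Nat.card F = Nat.card F - 1 + 1 := by have := h.q2; omega
  obtain ⟨c, hc⟩ : ((b ^ (u * m) : Kˣ) : K) ∈ Set.range (algebraMap F K) := mem_range_of_pow <| by
    obtain ⟨k, hk⟩ := h.dv
    rw [← Units.val_pow_eq_pow_val, q1, pow_succ, hk, pow_mul, h2, one_pow, one_mul]
  refine ⟨ml F b, ⟨Units.mk0 c fun z => Units.ne_zero _ (by rw [← hc, z, map_zero]), Units.ext ?_, _,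
    hP (b ^ (v * d)) ?_, fun w => ?_⟩, fun w => ?_⟩
  · refine (algebraMap F K).injective ?_
    rw [Units.val_pow_eq_pow_val, map_pow, Units.val_mk0, hc, ← Units.val_pow_eq_pow_val, h2]; simp
  · rw [← zpow_natCast, ← zpow_mul, show v * d * m = d * m * v by ring, zpow_mul, h1, one_zpow]
  · rw [Units.val_mk0, Algebra.smul_def, hc, ml_apply, ml_apply, ← mul_assoc, ← Units.val_mul,
      ← zpow_add, e, zpow_one]
  · rw [ml_apply, q1, pow_succ, mul_div_cancel_right₀ _ ha]; simp [b]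

theorem Par.trans_vec (h : Par (Nat.card F) (finrank F K) d m) (hS : G ≤ SLG F K)
    (hP : ∀ t : Kˣ, t ^ m = 1 → ml F t ∈ G) {g₀ : K ≃ₗ[F] K} (hg : g₀ ∈ G) (hm : ¬ Mono g₀)
    {g : K ≃ₗ[F] K} (h1 : g ∈ G) (h2 : Mono g) (h3 : g ∉ (ml F).range)
    {x y : K} (hx : x ≠ 0) (hy : y ≠ 0) : ∃ g ∈ G, g x = y := by
  obtain ⟨_, ⟨c, hc, k, hk, e⟩, rfl⟩ := h.trans_sc hP hg hm hx hy
  rcases h.dn with rfl | rfl
  · exact ⟨k, hk, by rw [e, ← pow_one c, hc]; simp⟩
  have hc' : (c : F) ^ finrank F K = 1 := by rw [← Units.val_pow_eq_pow_val, hc, Units.val_one]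
  obtain ⟨l, hl, w, w0, hw⟩ : ∃ l ∈ G, ∃ w ≠ 0, l w = (c : F) • w := by
    obtain ⟨σ, hσ⟩ := h2.semi
    by_cases a : g ^ finrank F K = 1
    · exact ⟨g, h1, exists_eig h.pr hσ (fun z => h3 (mem_ml (by simpa [z] using hσ))) a hc'⟩
    obtain ⟨b, hb⟩ := mem_ml (g := g ^ finrank F K) (by simpa [gal_pow] using semi_pow hσ (finrank F K))
    obtain ⟨ν, hν⟩ : (b : K) ∈ Set.range (algebraMap F K) := by_contra fun z => h3 <| by
      obtain ⟨b', e⟩ := eq_ml_of_comm h.pr (g := g) z fun x => by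
        rw [← ml_apply (F := F), ← ml_apply (F := F), hb, ← LinearEquiv.mul_apply, ← pow_succ',
          pow_succ]; rfl
      exact ⟨b', e.symm⟩
    have a1 : ((g ^ finrank F K : K ≃ₗ[F] K) : K →ₗ[F] K) = ν • LinearMap.id :=
      LinearMap.ext fun x => by simp [← hb, ← hν, Algebra.smul_def]
    have a2 := mem_SLG.1 (hS (pow_mem h1 (finrank F K)))
    rw [a1, LinearMap.det_smul, LinearMap.det_id, mul_one] at a2
    haveI := Fact.mk h.pr
    haveI := NeZero.mk h.pr.ne_zero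
    have a3 := IsPrimitiveRoot.orderOf ν
    rw [orderOf_eq_prime a2 fun z => a (by
      rw [← hb, show b = 1 from Units.ext (by simp [← hν, z]), map_one])] at a3
    obtain ⟨i, -, hi⟩ := a3.eq_pow_of_pow_eq_one hc'
    refine ⟨_, pow_mem (pow_mem h1 (finrank F K)) i, 1, one_ne_zero, ?_⟩
    rw [← hb, ← map_pow, ml_apply, ← hi, Algebra.smul_def, map_pow, hν, Units.val_pow_eq_pow_val]
  obtain ⟨_, ⟨c', -, k', hk', e'⟩, rfl⟩ := h.trans_sc hP hg hm (x := k x) (by simpa using hx) w0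
  refine ⟨k'⁻¹ * l * k' * k, mul_mem (mul_mem (mul_mem (inv_mem hk') hl) hk') hk, k'.injective ?_⟩
  rw [e', map_smul, smul_comm, smul_right_inj c'.ne_zero] at hw
  simp [e, hw]

end CF.X7S
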