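import Cfsg.Agent.X7.S2

/-! The Singer cycle in dimension seven over the field with eight elements: general lemmas. -/

set_option autoImplicit false
set_option linter.style.haveILetI false

namespace CF.X7S

open Module Subgroup MulAction CF.BG CF.Char CF.Char.Sg Cfsg Finset
open scoped ComplexConjugate

section
variable {G : Type*} [Group G] [Fintype G] {Ω : Type*} [MulAction G Ω] [Fintype Ω]

theorem trace0 [Nonempty Ω] [IsPretransitive G Ω] {t : G} {m D : ℕ} (hm : 2 ≤ m)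
    (hΩ : Nat.card Ω = D * m) (ht : ∀ x : Ω, t • x ≠ x)
    (h : ∀ χ, IsIrrCharacter G χ → χ ≠ (fun _ => 1) →
      classInner (fun g : G => (Nat.card (fixedBy Ω g) : ℂ)) χ ≠ 0 →
      ∃ u c : ℕ, 0 < c ∧ χ 1 = (u : ℂ) - c + c * m ∧ χ t = (u : ℂ) - c)
    (Δ : Ω → Ω → Prop) (inv : ∀ (g : G) x y, Δ x y → Δ (g • x) (g • y)) {k : ℕ}
    (hk : ∀ x, {y | Δ x y}.ncard = k) (hM : ∀ x, ¬ Δ x (t • x)) :
    (k : ℝ) * (m - 1) ≤ 2 * D ^ 3 * m := by
  classical
  have key := sum_conj_fix hm hΩ ht h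
  set N : ℝ := (Nat.card G : ℝ) with hN
  set V : ℝ := (Nat.card Ω : ℝ) with hV
  have N0 : 0 < N := by rw [hN]; exact_mod_cast Nat.card_pos
  have V0 : 0 < V := by rw [hV]; exact_mod_cast Nat.card_pos
  have m1 : (1 : ℝ) ≤ m - 1 := by have : (2 : ℝ) ≤ m := by exact_mod_cast hm
                                  linarith
  let w : Ω × Ω → ℝ := fun z => ∑ g : G, if (g * t * g⁻¹) • z.1 = z.2 then 1 else 0
  let S : Finset (Ω × Ω) := univ.filter fun z => Δ z.1 z.2
  have e1 : ∑ z, w z ^ 2 =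
      ∑ g : G, ∑ k : G, (Nat.card (fixedBy Ω ((k * t * k⁻¹)⁻¹ * (g * t * g⁻¹))) : ℝ) := by
    simp only [w, sq, Finset.sum_mul_sum]
    rw [Finset.sum_comm]
    refine Finset.sum_congr rfl fun g _ => ?_
    rw [Finset.sum_comm]
    refine Finset.sum_congr rfl fun k _ => ?_
    rw [Fintype.sum_prod_type, Nat.card_eq_fintype_card, Fintype.card_subtype, Finset.card_filter,
      Nat.cast_sum]
    refine Finset.sum_congr rfl fun x _ => ?_
    simp only [ite_mul, one_mul, zero_mul, Finset.sum_ite_eq, Finset.mem_univ, if_true, mem_fixedBy,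
      mul_smul (k * t * k⁻¹)⁻¹, inv_smul_eq_iff, Nat.cast_ite, Nat.cast_one, Nat.cast_zero]
    exact if_congr eq_comm rfl rfl
  have e2 : ∑ z, w z = V * N := by
    simp only [w]
    rw [Fintype.sum_prod_type, Finset.sum_congr rfl fun x _ => Finset.sum_comm]
    simp [hN, hV]
  have e3 : ∑ z ∈ S, w z = 0 := Finset.sum_eq_zero fun z hz => Finset.sum_eq_zero fun g _ => if_neg fun e =>
    hM (g⁻¹ • z.1) (by simpa [← e, mul_smul] using inv g⁻¹ _ _ (mem_filter.1 hz).2)
  have e4 : (S.card : ℝ) = V * k := by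
    rw [Finset.card_filter, Fintype.sum_prod_type, Finset.sum_congr rfl (g := fun _ => k) fun x _ => by
      rw [← hk x, Set.ncard_eq_toFinset_card', Set.toFinset_ofPred, Finset.card_filter]]
    simp [hV]
  have e5 : ∑ z, (w z - N / V) ^ 2 ≤ N ^ 2 * (2 * D ^ 2 / (m - 1)) := by
    simp only [sub_sq, Finset.sum_add_distrib, Finset.sum_sub_distrib, ← Finset.sum_mul,
      ← Finset.mul_sum, e1, e2, Finset.sum_const, Finset.card_univ,
      ← Nat.card_eq_fintype_card, Nat.card_prod, nsmul_eq_mul, Nat.cast_mul, ← hV]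
    have : 2 * (V * N) * (N / V) - V * V * (N / V) ^ 2 = N ^ 2 := by field_simp; ring
    linarith
  have e6 := sq_sum_le_card_mul_sum_sq (s := S) (f := fun z => w z - N / V)
  have e7 : ∑ z ∈ S, (w z - N / V) ^ 2 ≤ ∑ z, (w z - N / V) ^ 2 :=
    Finset.sum_le_sum_of_subset_of_nonneg (Finset.subset_univ _) fun _ _ _ => sq_nonneg _
  rw [Finset.sum_sub_distrib, e3, Finset.sum_const, nsmul_eq_mul, e4,
    show 0 - V * k * (N / V) = -(k * N) by field_simp; ring, neg_sq] at e6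
  replace e6 := e6.trans (mul_le_mul_of_nonneg_left (e7.trans e5) (by positivity))
  have hV' : V = D * m := by rw [hV, hΩ]; push_cast; rfl
  rcases Nat.eq_zero_or_pos k with rfl | k0
  · simp; positivity
  rw [← le_div_iff₀ (by linarith)]
  refine le_of_mul_le_mul_left (a := N ^ 2 * k) ?_ (by positivity)
  convert e6 using 1
  · ring
  · rw [hV']; ring

omit [MulAction G Ω] [Fintype Ω] in
theorem exists_lam {A B : Subgroup G} {M : Type*} [CommGroup M] [Finite M] (c : A →* M) (l : B ≤ A)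
    (e : ∀ a : A, a.1 ∈ B ↔ c a = 1) {χ : G → ℂ} (hχ : IsClassFunction G χ)
    (h : classInner (indFun B fun _ => 1) χ ≠ 0) : ∃ μ : A →* ℂˣ, classInner (indFun A fun a => μ a) χ ≠ 0 := by
  classical
  haveI := Fintype.ofFinite M
  obtain ⟨μ, hμ⟩ := exists_linear_sum (G := M) mul_comm char_regChar (regChar_one (G := M))
  by_contra! k
  have := Finset.sum_eq_zero (s := univ) fun i _ => k ((μ i).comp c)
  simp only [inner_indFun_left _ _ hχ, ← inner_sum_left] at this
  refine h ?_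
  rw [inner_indFun_left _ _ hχ, inner_def] at *
  rw [mul_eq_zero] at this ⊢
  refine .inr (mul_left_cancel₀ (card_ne_zero_complex (G := M)) ?_)
  rw [mul_zero, ← this.resolve_left (inv_ne_zero card_ne_zero_complex), Finset.mul_sum]
  symm
  refine Finset.sum_bij_ne_zero (fun a _ n => ⟨a.1, (e a).2 (by_contra fun z => n (by
    simp [Finset.sum_apply, ← hμ, regChar_of_ne z]))⟩) (by simp) (fun _ _ _ _ _ _ z => Subtype.ext (congrArg (·.1) z))
    (fun b _ n => ⟨⟨b, l b.2⟩, mem_univ _, by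
      simpa [Finset.sum_apply, ← hμ, (e ⟨b, l b.2⟩).1 b.2] using n, rfl⟩) fun a _ n => ?_
  have : c a = 1 := by_contra fun z => n (by simp [Finset.sum_apply, ← hμ, regChar_of_ne z])
  simp [Finset.sum_apply, ← hμ, this]

theorem arith {M k K a c : ℝ} (h : (M - k) ^ 2 * a ≤ c * k) (l : k ≤ K) (l' : K ≤ M) (a0 : 0 ≤ a) (c0 : 0 ≤ c) :
    (M - K) ^ 2 * a ≤ c * K :=
  ((mul_le_mul_of_nonneg_right (pow_le_pow_left₀ (by linarith) (by linarith) 2) a0).trans h).trans
    (mul_le_mul_of_nonneg_left l c0)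

end

open scoped LinearAlgebra.Projectivization

theorem cnt {F K : Type*} [Field F] [AddCommGroup K] [Module F K] {A : K → Prop}
    (h : ∀ (c : Fˣ) x, A x → A ((c : F) • x)) :
    {x | x ≠ 0 ∧ A x}.ncard = Nat.card Fˣ * {p : ℙ F K | A p.rep}.ncard := by
  rw [← Nat.card_coe_set_eq, ← Nat.card_coe_set_eq, ← Nat.card_prod]
  refine (Nat.card_eq_of_bijective (fun z : Fˣ × {p : ℙ F K | A p.rep} =>
    (⟨(z.1 : F) • z.2.1.rep, smul_ne_zero z.1.ne_zero z.2.1.rep_nonzero, h _ _ z.2.2⟩ : {x | x ≠ 0 ∧ A x}))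
      ⟨?_, fun ⟨x, x0, a⟩ => ?_⟩).symm
  · rintro ⟨c, p⟩ ⟨c', p'⟩ e
    have e : (c : F) • p.1.rep = (c' : F) • p'.1.rep := congrArg Subtype.val e
    obtain rfl : p = p' := Subtype.ext (by
      rw [← p.1.mk_rep, ← p'.1.mk_rep, Projectivization.mk_eq_mk_iff']
      exact ⟨(c : F)⁻¹ * c', by rw [mul_smul, ← e, inv_smul_smul₀ c.ne_zero]⟩)
    rw [Units.ext (smul_left_injective F p.1.rep_nonzero e)]
  · obtain ⟨c, hc⟩ := Projectivization.exists_smul_eq_mk_rep F x x0
    exact ⟨⟨c⁻¹, _, hc ▸ h c x a⟩, Subtype.ext (by simp [← hc, Units.smul_def])⟩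

end CF.X7S
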