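import Cfsg.Agent.X7.S3

/-! The Singer cycle in dimension seven over the field with eight elements. -/

set_option autoImplicit false
set_option linter.style.haveILetI false
set_option linter.unusedSectionVars false

namespace CF.X7S

open Module CF.Geom Subgroup MulAction CF.BG CF.Char CF.Char.Sg Cfsg CF.Sing
open scoped LinearAlgebra.Projectivization

variable {F K : Type*} [Field F] [Field K] [Algebra F K] [Finite K] {d m : ℕ}
  {G : Subgroup (K ≃ₗ[F] K)}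

theorem Par.vals (h : Par 8 7 d m) : d = 7 ∧ m = 42799 := by
  have := h.eq
  have c := h.c1
  rcases h.dn with rfl | rfl
  · obtain rfl : m = 299593 := by omega
    exact absurd c (by norm_num)
  · omega

/-- The orbitals. -/
def Rl (G : Subgroup (K ≃ₗ[F] K)) (u v : K) (c : Fˣ) (x y : K) : Prop :=
  ∃ g ∈ sc (Nat.card F - 1) G, g u = x ∧ g ((c : F) • v) = y

namespace Rl
variable {u v x y : K} {c c' : Fˣ}

theorem act (h : Rl G u v c x y) {g : K ≃ₗ[F] K} (a : g ∈ sc (Nat.card F - 1) G) : Rl G u v c (g x) (g y) :=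
  let ⟨l, hl, b, e⟩ := h; ⟨g * l, mul_mem a hl, congrArg g b, congrArg g e⟩

theorem right (h : Rl G u v c x y) (a : Fˣ) : Rl G u v (a * c) x ((a : F) • y) :=
  let ⟨l, hl, b, e⟩ := h; ⟨l, hl, b, by rw [← e, ← map_smul, Units.val_mul, mul_smul]⟩

theorem both (h : Rl G u v c x y) (a : Fˣ) : Rl G u v c ((a : F) • x) ((a : F) • y) := by
  haveI : Finite F := Finite.of_injective _ (algebraMap F K).injective
  exact h.act (g := LinearEquiv.smulOfNeZero F K a a.ne_zero)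
    ⟨a, by rw [← Nat.card_units, pow_card_eq_one'], 1, one_mem _, fun _ => rfl⟩

theorem left (h : Rl G u v c x y) (a : Fˣ) : Rl G u v (a⁻¹ * c) ((a : F) • x) y := by
  simpa using (h.both a).right a⁻¹

theorem div (h : Rl G u v c x y) (k : Rl G u v c' x y) : Rl G u v 1 u (((c⁻¹ * c' : Fˣ) : F) • v) := by
  obtain ⟨l, hl, b, e⟩ := h
  obtain ⟨l', hl', b', e'⟩ := k
  refine ⟨l'⁻¹ * l, mul_mem (inv_mem hl') hl, l'.injective (by simp [b, b']), l'.injective ?_⟩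
  rw [map_smul] at e e'
  simp [mul_smul, e', ← e]

theorem pow (h : Rl G u v 1 u ((c : F) • v)) (n : ℕ) : Rl G u v 1 u (((c ^ n : Fˣ) : F) • v) := by
  induction n with
  | zero => exact ⟨1, one_mem _, rfl, by simp⟩
  | succ n ih =>
    obtain ⟨l, hl, b, e⟩ := h
    simpa [b, show l v = _ by simpa using e, pow_succ, mul_smul] using ih.act hl

omit [Finite K] in
theorem row (C : Set Fˣ) (hx : ∃ g ∈ sc (Nat.card F - 1) G, g u = x) :
    {y | ∃ c ∈ C, Rl G u v c x y} = (fun z : Fˣ × K => (z.1 : F) • hx.choose z.2) ''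
      (C ×ˢ Sub (sc (Nat.card F - 1) G) u v) := by
  obtain ⟨a, b⟩ := hx.choose_spec
  generalize hx.choose = g at *
  ext y
  exact ⟨fun ⟨c, e, l, hl, p, q⟩ => ⟨(c, g⁻¹ (l v)), ⟨e, g⁻¹ * l, mul_mem (inv_mem a) hl, by simp [p, ← b], rfl⟩, by
    simp [← q]⟩, fun ⟨⟨c, _⟩, ⟨e, l, hl, p, s⟩, q⟩ => ⟨c, e, g * l, mul_mem a hl, by simp [p, b], by
      simp [← q, show l v = _ from s]⟩⟩

end Rl

theorem nz_card {A : K → Prop} : {x : NZ G | A x.1}.ncard = {x | x ≠ 0 ∧ A x}.ncard :=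
  Set.ncard_congr (fun x _ => x.1) (fun x a => ⟨x.2, a⟩) (fun _ _ _ _ => Subtype.ext) fun x a => ⟨⟨x, a.1⟩, a.2, rfl⟩

namespace Par
variable (h : Par (Nat.card F) (finrank F K) d m) (hP : ∀ t : Kˣ, t ^ m = 1 → ml F t ∈ G)
include h hP

theorem orbs {u v : K} {t : Kˣ} (C : Set Fˣ) (k : ∀ c ∈ C, ∃ x, x ≠ 0 ∧ Rl G u v c x (t * x))
    (j : ∀ c ∈ C, ∀ c' ∈ C, ∀ x y, Rl G u v c x y → Rl G u v c' x y → c = c') :
    C.ncard * ((Nat.card F - 1) * m) ≤ {x | x ≠ 0 ∧ ∃ c ∈ C, Rl G u v c x (t * x)}.ncard := by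
  haveI : Finite F := Finite.of_injective _ (algebraMap F K).injective
  choose! x x0 k using k
  have r : ∀ (c : C) (a : Fˣ) (s : (powMonoidHom m : Kˣ →* Kˣ).ker),
      Rl G u v c ((a : F) • (s.1 * x c)) (t * (a : F) • (s.1 * x c)) := fun c a s => by
    simpa [mul_left_comm] using ((k c c.2).act (le_sc _ (hP _ s.2))).both a
  rw [← h.card_ker (e := m) (Dvd.intro_left _ rfl), ← Nat.card_units, ← Nat.card_coe_set_eq, ← Nat.card_prod,
    ← Nat.card_prod, ← Nat.card_coe_set_eq]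
  refine Nat.card_le_card_of_injective (fun z => ⟨(z.2.1 : F) • (z.2.2.1 * x z.1),
    smul_ne_zero z.2.1.ne_zero (mul_ne_zero z.2.2.1.ne_zero (x0 _ z.1.2)), z.1, z.1.2, r ..⟩) ?_
  rintro ⟨b, c, s⟩ ⟨b', c', s'⟩ e
  have e : (c : F) • ((s.1 : K) * x b) = (c' : F) • (s'.1 * x b') := congrArg (fun z => z.1) e
  obtain rfl : b = b' := Subtype.ext (j _ b.2 _ b'.2 _ _ (r b c s) (e ▸ r b' c' s'))
  have hu := x0 _ b.2
  obtain rfl : s = s' := by_contra fun n => h.notMem (s / s').2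
    (fun z => n (div_eq_one.1 (Subtype.ext z))) ⟨c' / c, by
      rw [Algebra.smul_def, Algebra.smul_def, ← mul_assoc, ← mul_assoc, mul_left_inj' hu] at e
      simp only [map_div₀, coe_div, Units.val_div_eq_div_val]
      rw [div_eq_div_iff (by simp) (by simp), ← e, mul_comm]⟩
  rw [Units.ext (smul_left_injective F (mul_ne_zero s.1.ne_zero hu) e)]

theorem sub_ge8 (hn : finrank F K = 7) (h8 : Nat.card F = 8)
    (hS : G ≤ SLG F K) (min : ∀ L : Subgroup G, L.Normal → PP m G ≤ L → L = ⊤)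
    {g₀ : K ≃ₗ[F] K} (hg : g₀ ∈ G) (hm : ¬ Mono g₀) {t : Kˣ} (ht : t ^ m = 1) (t1 : t ≠ 1) {u : K}
    (hu : u ≠ 0) :
    Nat.card F ^ (finrank F K - 1) ≤ (Sub (sc (Nat.card F - 1) G) u (t * u)).ncard := by
  classical
  haveI : Finite F := Finite.of_injective _ (algebraMap F K).injective
  haveI := Fintype.ofFinite G
  haveI := Fintype.ofFinite (PP m G)
  haveI := Fintype.ofFinite (NZ G)
  haveI := Fintype.ofFinite (ℙ F K)
  obtain ⟨rfl, rfl⟩ := Par.vals (hn ▸ h8 ▸ h)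
  obtain ⟨g, h1, h2, h3⟩ : ∃ g ∈ G, Mono g ∧ g ∉ (ml F).range := by
    by_contra c
    push Not at c
    refine h.frob_case (fun x y a b => ?_) hP c hg hm
    obtain ⟨_, ⟨c, -, k, hk, e⟩, rfl⟩ := h.trans_sc hP hg hm a b
    exact ⟨k, hk, (c⁻¹ : Fˣ), by simp [e]⟩
  have tr := fun x y => h.trans_vec hS hP hg hm h1 h2 h3 (x := x) (y := y)
  haveI : IsPretransitive G (NZ G) := ⟨fun x y => by
    obtain ⟨k, hk, e⟩ := tr _ _ x.2 y.2
    exact ⟨⟨k, hk⟩, Subtype.ext e⟩⟩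
  haveI : IsPretransitive G (ℙ F K) := ⟨fun p p' => by
    obtain ⟨g, a, c⟩ := tr _ _ p.rep_nonzero p'.rep_nonzero
    exact ⟨⟨g, a⟩, (smul_eq_iff ..).2 ⟨1, by simpa using c⟩⟩⟩
  haveI : Nonempty (NZ G) := ⟨⟨u, hu⟩⟩
  let p₀ := Projectivization.mk F u hu
  haveI : Nonempty (ℙ F K) := ⟨p₀⟩
  have cΩ : Nat.card (NZ G) = 49 * 42799 := by
    rw [show Nat.card (NZ G) = Nat.card Kˣ from Nat.card_congr (unitsEquivNeZero (G₀ := K)).symm, h.card_units, h8]
  have cP : Nat.card (ℙ F K) = 7 * 42799 := by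
    have := Projectivization.card' F K
    rw [card_top (F := F), hn, h8] at this
    omega
  have cU : Nat.card Fˣ = 7 := by rw [Nat.card_units, h8]
  have fp : ∀ (c : G) (b : Kˣ), ml F b = c.1 → ∀ p : ℙ F K, c • p = p → (b : K) ∈ Set.range (algebraMap F K) :=
    fun c b e p k => by
      obtain ⟨a, ha⟩ := (smul_eq_iff ..).1 k
      exact ⟨a, mul_right_cancel₀ p.rep_nonzero (by rw [← Algebra.smul_def, ← ha, ← e, ml_apply])⟩
  let τ : G := ⟨_, hP t ht⟩
  have τ1 : τ ≠ 1 := fun z => t1 (ml_inj ((congrArg Subtype.val z).trans (map_one _).symm))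
  have τp : ∀ p : ℙ F K, τ • p ≠ p := fun p e => h.notMem ht t1 (fp τ t rfl p e)
  have τv : ∀ x : NZ G, τ • x ≠ x := fun x e => t1 (Units.ext (mul_right_cancel₀ x.2
    ((congrArg Subtype.val e).trans (one_mul _).symm)))
  have uc : ∀ (μ : stabilizer G p₀ →* ℂˣ) χ, IsIrrCharacter G χ → χ ≠ (fun _ => 1) →
      classInner (indFun _ fun a => μ a) χ ≠ 0 →
        ∃ u c : ℕ, 0 < c ∧ χ 1 = (u : ℂ) - c + c * (42799 : ℕ) ∧ χ τ = (u : ℂ) - c := fun l χ hχ n i => by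
    obtain ⟨a, c, c0, e1, e2⟩ := exists_uc (h.ht hP hS).abel (irr_isCharacter hχ) (fun k =>
      n (irr_eq_one_of_charKer_eq_top hχ (min _ (charKer_normal (irr_isClassFunction hχ)) k)))
      fun μ ν hμ hν => (h.ht hP hS).const min
        (fun z => h3 ((h.mem_C hP).1 (z (mem_N_of_mono (g := ⟨g, h1⟩) h2)))) (char_indFun _ (char_linear l))
        (fun c hc k ⟨s, hs, e⟩ z => indFun_eq_zero_of_not_conj _ _ fun x hx => by
          obtain ⟨b, hb⟩ := (h.mem_C hP).1 hc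
          obtain ⟨a, ha⟩ := fp c b hb (x⁻¹ • p₀) (by
            rw [eq_inv_smul_iff, ← mul_smul, ← mul_smul]; exact hx)
          have : s = b ^ k := ml_inj (by rw [map_pow, hb]; exact e)
          exact h.notMem hs (fun w => z (Subtype.ext (by rw [w, map_one] at e; exact e.symm)))
            ⟨a ^ k, by rw [map_pow, ha, this, Units.val_pow_eq_pow_val]⟩)
        (d := 7 * 42799) (by rw [indFun_one, index_stabilizer_of_transitive, cP]; simp)
        (fun f hf => by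
          rw [h.card_PP hP] at hf ⊢
          have := hf.trans (Nat.mul_le_mul_right _ ((h.relIndex_le hP).trans hn.le))
          have : f ≤ 49 := by omega
          nlinarith) hχ n i hμ hν
    exact ⟨a, c, c0, by rw [e1, h.card_PP hP], e2 τ ⟨t, ht, rfl⟩ τ1⟩
  have ucp : ∀ χ, IsIrrCharacter G χ → χ ≠ (fun _ => 1) →
      classInner (fun g : G => (Nat.card (fixedBy (ℙ F K) g) : ℂ)) χ ≠ 0 →
        ∃ u c : ℕ, 0 < c ∧ χ 1 = (u : ℂ) - c + c * (42799 : ℕ) ∧ χ τ = (u : ℂ) - c := fun χ a b c =>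
    uc 1 χ a b (by rw [fixedBy_eq_indFun _ p₀] at c; simpa using c)
  have ucv : ∀ χ, IsIrrCharacter G χ → χ ≠ (fun _ => 1) →
      classInner (fun g : G => (Nat.card (fixedBy (NZ G) g) : ℂ)) χ ≠ 0 →
        ∃ u c : ℕ, 0 < c ∧ χ 1 = (u : ℂ) - c + c * (42799 : ℕ) ∧ χ τ = (u : ℂ) - c := fun χ a b c => by
    have : ∀ a : stabilizer G p₀, ∃ c : Fˣ, a.1.1 p₀.rep = (c : F) • p₀.rep := fun a => by
      obtain ⟨c, e⟩ := (smul_eq_iff ..).1 a.2
      exact ⟨.mk0 c fun z => p₀.rep_nonzero (by simpa [z] using e), e⟩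
    choose f hf using this
    have j := smul_left_injective F p₀.rep_nonzero
    rw [fixedBy_eq_indFun _ (⟨_, p₀.rep_nonzero⟩ : NZ G)] at c
    obtain ⟨μ, k⟩ := exists_lam (A := stabilizer G p₀) (MonoidHom.mk' f fun a b => Units.ext (j (by
      change _ • _ = _ • _
      rw [← hf, Units.val_mul, mul_comm, mul_smul, ← hf, ← map_smul, ← hf]; rfl)))
      (fun a e => (smul_eq_iff ..).2 ⟨1, (congrArg Subtype.val e).trans (one_smul ..).symm⟩)
      (fun a => ⟨fun e => Units.ext (j ((hf a).symm.trans ((congrArg Subtype.val e).trans (one_smul ..).symm))),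
        fun e => Subtype.ext ((hf a).trans (by rw [show f a = 1 from e]; simp))⟩) (irr_isClassFunction a) c
    exact uc μ χ a b k
  by_contra lt
  replace lt := not_le.1 lt
  set k := (Sub (sc (Nat.card F - 1) G) u (t * u)).ncard
  have tx : ∀ {x}, x ≠ 0 → ∃ g ∈ sc (Nat.card F - 1) G, g u = x := fun e =>
    let ⟨g, a, b⟩ := tr _ _ hu e; ⟨g, le_sc _ a, b⟩
  have rw1 : ∀ (C : Set Fˣ) x, x ≠ 0 → {y | y ≠ 0 ∧ ∃ c ∈ C, Rl G u (t * u) c x y}.ncard ≤ C.ncard * k := fun C x e => by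
    rw [← Set.ncard_prod]
    exact (Set.ncard_le_ncard (fun y a => (Rl.row C (tx e)).le a.2) (Set.toFinite _)).trans Set.ncard_image_le
  have r0 : Rl G u (t * u) 1 u (t * u) := ⟨1, one_mem _, rfl, by simp⟩
  have o1 := h.orbs hP (t := t) {1} (by simpa using ⟨u, hu, r0⟩) (by simp +contextual)
  have pb : ∀ {kp Mp : ℕ}, (∀ x, x ≠ 0 → {y | y ≠ 0 ∧ ∃ c, Rl G u (t * u) c x y}.ncard < 7 * (kp + 1)) →
      7 * Mp ≤ {x | x ≠ 0 ∧ ∃ c, Rl G u (t * u) c x (t * x)}.ncard → kp ≤ Mp →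
        ((Mp : ℝ) - kp) ^ 2 * 42798 ≤ 686 * 42799 * kp := fun {kp Mp} a b c => by
    have rp : ∀ (g : G) (p : ℙ F K), ∃ a : Fˣ, (g • p).rep = (a : F) • g.1 p.rep := fun g p => by
      obtain ⟨a, e⟩ := (smul_eq_iff g p _).1 rfl
      have : a ≠ 0 := fun z => p.rep_nonzero (by simpa [z] using e)
      exact ⟨(.mk0 a this)⁻¹, by simp [e, this]⟩
    have := trace_bound (t := τ) (by norm_num) cP τp ucp (fun p p' => ∃ c, Rl G u (t * u) c p.rep p'.rep)
      (fun g p p' ⟨c, e⟩ => by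
        obtain ⟨a, e1⟩ := rp g p
        obtain ⟨a', e2⟩ := rp g p'
        exact ⟨_, e1 ▸ e2 ▸ ((e.act (le_sc _ g.2)).left a).right a'⟩) (k := kp) (M := Mp) (fun p => by
          have := a _ p.rep_nonzero
          rw [cnt (F := F) fun a y ⟨c, e⟩ => ⟨_, e.right a⟩, cU] at this
          omega) (by
          rw [cnt (F := F) fun a y ⟨c, e⟩ => ⟨_, by simpa using e.both a⟩, cU] at b
          refine (Nat.le_of_mul_le_mul_left b (by norm_num)).trans (Set.ncard_le_ncard (fun p ⟨c, e⟩ => ?_) (Set.toFinite _))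
          obtain ⟨a, e1⟩ := rp τ p
          exact ⟨_, e1 ▸ e.right a⟩) c
    push_cast at this
    linarith
  rw [h8, hn] at lt
  rw [h8, Set.ncard_singleton] at o1
  by_cases sp : ∃ c : Fˣ, c ≠ 1 ∧ Rl G u (t * u) 1 u ((c : F) • (t * u))
  · obtain ⟨c, c1, e⟩ := sp
    have := pb (kp := 37449) (Mp := 42799) (fun x x0 => lt_of_le_of_lt (le_trans (Set.ncard_le_ncard (fun y ⟨a, b, e'⟩ => ?_)
      (Set.toFinite _)) (rw1 {1} x x0)) (by simp; omega)) (o1.trans (Set.ncard_le_ncard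
        (fun y ⟨a, b, _, e⟩ => ⟨a, b, e⟩) (Set.toFinite _))) (by norm_num)
    · norm_num at this
    haveI : Fact (Nat.Prime 7) := ⟨by norm_num⟩
    obtain ⟨n, rfl⟩ := mem_powers_of_prime_card cU c1 (g' := b)
    obtain ⟨l, hl, p, rfl⟩ := e'
    exact ⟨a, 1, rfl, p ▸ (e.pow n).act hl⟩
  have j : ∀ c c' x y, Rl G u (t * u) c x y → Rl G u (t * u) c' x y → c = c' := fun c c' x y a b =>
    by_contra fun n => sp ⟨_, fun e => n (inv_mul_eq_one.1 e), a.div b⟩
  have vi : ∀ (C : Set Fˣ) (g : G) (x y : NZ G), (∃ c ∈ C, Rl G u (t * u) c x y) →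
      ∃ c ∈ C, Rl G u (t * u) c (g • x).1 (g • y).1 := fun C g x y ⟨c, a, e⟩ => ⟨c, a, e.act (le_sc _ g.2)⟩
  have b1 := trace_bound (t := τ) (by norm_num) cΩ τv ucv _ (vi {1}) (k := k) (M := 7 * 42799)
    (fun x => by simpa [nz_card (A := fun y => Rl G u (t * u) 1 x y)] using rw1 {1} x x.2)
    (le_trans (by omega) (o1.trans_eq (nz_card (A := fun x => ∃ c ∈ ({1} : Set Fˣ), Rl G u (t * u) c x (t * x))).symm))
    (by omega)
  have k1 : 126000 < k := by_contra fun n => by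
    have := arith (K := 126000) (c := 2 * 49 ^ 3 * 42799) b1 (by exact_mod_cast not_lt.1 n) (by norm_num) (by norm_num)
      (by norm_num)
    norm_num at this
  let Z := {c | ∀ x, x ≠ 0 → ¬ Rl G u (t * u) c x (t * x)}
  have b2 := trace0 (t := τ) (by norm_num) cΩ τv ucv _ (vi Z) (k := Z.ncard * k) (fun x => by
    rw [nz_card (A := fun y => ∃ c ∈ Z, Rl G u (t * u) c x y), ← Set.ncard_prod,
      ← Set.InjOn.ncard_image (f := fun z : Fˣ × K => (z.1 : F) • (tx x.2).choose z.2), ← Rl.row]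
    · congr 1
      ext y
      exact and_iff_right_of_imp fun ⟨c, _, l, _, _, e⟩ => e ▸ by simp [hu]
    rintro ⟨c, _⟩ ⟨-, l, hl, p, rfl⟩ ⟨c', _⟩ ⟨-, l', hl', p', rfl⟩ e
    replace e : (c : F) • l (t * u) = (c' : F) • l' (t * u) := (tx x.2).choose.injective (by simpa using e)
    obtain rfl := j c c' u _ ⟨l, hl, p, map_smul ..⟩ ⟨l', hl', p', (map_smul ..).trans e.symm⟩
    rw [smul_right_injective K c.ne_zero e]) fun x ⟨c, a, e⟩ => a x x.2 e
  have o2 := h.orbs hP (t := t) Zᶜ (by simp [Z]) fun c _ c' _ => j c c'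
  have z := Set.ncard_add_ncard_compl Z
  rw [cU] at z
  rw [h8] at o2
  replace b2 : Z.ncard * k * 42798 ≤ 2 * 49 ^ 3 * 42799 := by
    push_cast at b2; exact_mod_cast (by linarith : (Z.ncard * k * 42798 : ℝ) ≤ 2 * 49 ^ 3 * 42799)
  have b3 := pb (kp := k) (Mp := Zᶜ.ncard * 42799) (fun x x0 => by
    have := rw1 Set.univ x x0
    simp only [Set.mem_univ, true_and, Set.ncard_univ, cU] at this
    omega) (le_trans (by omega) (o2.trans (Set.ncard_le_ncard (fun y ⟨a, b, _, e⟩ => ⟨a, b, e⟩) (Set.toFinite _))))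
  generalize Z.ncard = a at *
  generalize Zᶜ.ncard = b at *
  obtain ⟨rfl, rfl⟩ | ⟨rfl, rfl⟩ : a = 0 ∧ b = 7 ∨ a = 1 ∧ b = 6 := by
    have : a < 2 := by nlinarith
    omega
  · have := arith (K := 262144) (b3 (by omega)) (by exact_mod_cast lt.le) (by norm_num) (by norm_num) (by norm_num)
    norm_num at this
  · have := arith (K := 235304) (b3 (by omega)) (by exact_mod_cast (by omega : k ≤ 235304)) (by norm_num)
      (by norm_num) (by norm_num)
    norm_num at this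

theorem tr8 (hn : finrank F K = 7) (h8 : Nat.card F = 8)
    (hS : G ≤ SLG F K) {g₀ : K ≃ₗ[F] K} (hg : g₀ ∈ G) (hm : ¬ Mono g₀) : Tr2 G := by
  haveI : Finite F := Finite.of_injective _ (algebraMap F K).injective
  obtain ⟨X, hle, hP, ⟨g, hg, hm⟩, min⟩ := h.exists_min hP hg hm
  have tr : ∀ x y : K, x ≠ 0 → y ≠ 0 → ∃ g ∈ sc (Nat.card F - 1) X, g x = y := fun x y a b => by
    obtain ⟨l, ⟨c, -, e⟩, z⟩ := h.trans_sc hP hg hm a b
    exact ⟨l, ⟨c, by rw [← Nat.card_units, pow_card_eq_one'], e⟩, z⟩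
  have := tr2_of_big (H := sc (Nat.card F - 1) X) (fun c c0 => ⟨LinearEquiv.smulOfNeZero F K c c0,
    ⟨Units.mk0 c c0, by rw [← Nat.card_units, pow_card_eq_one'], 1, one_mem _, fun _ => rfl⟩,
    fun _ => rfl⟩) (by have := h.n13; omega) tr fun x y a => by
      obtain ⟨t, u, t1, t2, u0, u1, u2⟩ := h.exists_pair a
      exact (h.sub_ge8 hP hn h8 (hle.trans hS) min hg hm t1 t2 u0).trans (sub_le tr a.1 u0 u1 u2)
  intro x y x' y' a b
  obtain ⟨_, ⟨c, -, k, hk, e⟩, ⟨r, hr⟩, s, hs⟩ := this x y x' y' a b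
  exact ⟨k, hle hk, ⟨(c : F)⁻¹ * r, by rw [mul_smul, ← hr, e, inv_smul_smul₀ c.ne_zero]⟩,
    (c : F)⁻¹ * s, by rw [mul_smul, ← hs, e, inv_smul_smul₀ c.ne_zero]⟩

end Par

open Cfsg.Geo in
theorem singer7 {F : Type*} [Field F] [Finite F]
    {K : Subalgebra F (Matrix (Fin 7) (Fin 7) F)} (hK : IsFieldSubalgebra 7 K) :
    IsMaximalIn (specialLinear (Fin 7) F) (subalgebraNormalizer K ⊓ specialLinear (Fin 7) F) := by
  by_cases h8 : Nat.card F = 8
  · exact isMaximalIn_singer (by simp) (by norm_num) hK fun _ _ _ _ _ _ e h _ a b _ c d => h.tr8 b e h8 a c d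
  · exact singer (.inl rfl) (fun e => h8 e.2) hK

end CF.X7S
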